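-- Team project CHO (S1082/S1083, helper99), packages [RO-D4], [RO-B2] (helper10):
-- the groups generated by the model root elements consist of isometries.
import Mathlib
import Cfsg.Agent.Lib.Helper99.CHO.Defs2

set_option autoImplicit false
open scoped MatrixGroups
open Matrix

namespace Cfsg.Agent.Lib.Helper10.CHO

open Cfsg.Agent.Lib.Helper99.CHO

universe u

/-- the matrix of the root element `E_r(t)` of type D4 -/
theorem coe_ED4 (hU : PkgUnitD4.{u}) (K : Type u) [Field K] (r : Fin Cfsg.Lie.chevD4.nroots)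
    (t : K) :
    ((ED4 K r t : GL (Fin 4 ⊕ Fin 4) K) : Matrix (Fin 4 ⊕ Fin 4) (Fin 4 ⊕ Fin 4) K) =
      ED4mat K r.val t := by
  have h : IsUnit (ED4mat K r.val t) := hU K r.val t r.isLt
  unfold ED4
  rw [dif_pos h]
  exact h.unit_spec

/-- the matrix of the root element `E_r(t)` of type B2 -/
theorem coe_EB2 (hU : PkgUnitB2.{u}) (K : Type u) [Field K] (r : Fin Cfsg.Lie.chevB2.nroots)
    (t : K) :
    ((EB2 K r t : GL (Unit ⊕ (Fin 2 ⊕ Fin 2)) K) :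
      Matrix (Unit ⊕ (Fin 2 ⊕ Fin 2)) (Unit ⊕ (Fin 2 ⊕ Fin 2)) K) = EB2mat K r.val t := by
  have h : IsUnit (EB2mat K r.val t) := hU K r.val t r.isLt
  unfold EB2
  rw [dif_pos h]
  exact h.unit_spec

/-- [RO-D4] -/
theorem pkgRoD4_of (hU : PkgUnitD4.{u}) (hI : PkgIsoD4.{u}) : PkgRoD4.{u} := by
  intro K _
  unfold RD4
  rw [Subgroup.closure_le]
  rintro _ ⟨⟨r, t⟩, rfl⟩
  intro x _
  show Cfsg.quadFormPlus 4 K
      (((ED4 K r t : GL (Fin 4 ⊕ Fin 4) K) : Matrix (Fin 4 ⊕ Fin 4) (Fin 4 ⊕ Fin 4) K) *ᵥ x) =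
    Cfsg.quadFormPlus 4 K x
  rw [coe_ED4 hU]
  exact hI K r.val t r.isLt x

/-- [RO-B2] -/
theorem pkgRoB2_of (hU : PkgUnitB2.{u}) (hI : PkgIsoB2.{u}) : PkgRoB2.{u} := by
  intro K _
  unfold RB2
  rw [Subgroup.closure_le]
  rintro _ ⟨⟨r, t⟩, rfl⟩
  intro x _
  show Cfsg.quadFormOdd 2 K
      (((EB2 K r t : GL (Unit ⊕ (Fin 2 ⊕ Fin 2)) K) :
        Matrix (Unit ⊕ (Fin 2 ⊕ Fin 2)) (Unit ⊕ (Fin 2 ⊕ Fin 2)) K) *ᵥ x) =
    Cfsg.quadFormOdd 2 K x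
  rw [coe_EB2 hU]
  exact hI K r.val t r.isLt x

end Cfsg.Agent.Lib.Helper10.CHO
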