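-- Team project CHO (S1082/S1083, helper99), packages [XGL-D4], [XGL-B2] (helper10):
-- the matrices `x_r(t)` of the Chevalley groups of type D4 and B2 are invertible.
import Mathlib
import Cfsg.Agent.Lib.Helper99.CHO.Defs
import Cfsg.Agent.Lib.Helper18.ChevUnits

set_option autoImplicit false
open scoped MatrixGroups
open Matrix

namespace Cfsg.Agent.Lib.Helper10.CHO

open Cfsg.Agent.Lib.Helper99.CHO

universe u

/-- [XGL-D4] -/
theorem pkgXGL_D4 : PkgXGL.{u} Cfsg.Lie.chevD4 := by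
  intro K _ r t
  refine ⟨Cfsg.Agent.Lib.Helper18.xU Cfsg.Lie.chevD4 (by simp) r.val t, ?_⟩
  rw [Cfsg.Agent.Lib.Helper18.coe_xU, Cfsg.Lie.ChevalleyDatum.x, dif_pos r.isLt]

/-- [XGL-B2] -/
theorem pkgXGL_B2 : PkgXGL.{u} Cfsg.Lie.chevB2 := by
  intro K _ r t
  refine ⟨Cfsg.Agent.Lib.Helper18.xU Cfsg.Lie.chevB2 (by simp) r.val t, ?_⟩
  rw [Cfsg.Agent.Lib.Helper18.coe_xU, Cfsg.Lie.ChevalleyDatum.x, dif_pos r.isLt]

end Cfsg.Agent.Lib.Helper10.CHO
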